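-- helper85: project OFM (S5978, helper74), support for [SYL4]: a polynomial square root of `a`
-- modulo `1 + X + ... + X^(r-1)` when the order of `q` modulo `r` is even.
import Mathlib

set_option autoImplicit false
open Polynomial

universe u

namespace Cfsg.Agent.Lib.Helper85.OFM

section sqrt

variable {F : Type u} [Field F] [Fintype F]

/-- the polynomial `1 + X + ... + X^(r-1)` -/
noncomputable def phiPoly (F : Type u) [Field F] (r : ℕ) : Polynomial F :=
  ∑ k ∈ Finset.range r, (X : Polynomial F) ^ k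

omit [Fintype F] in
theorem phiPoly_mul (r : ℕ) : phiPoly F r * (X - 1) = X ^ r - 1 := by
  unfold phiPoly
  exact geom_sum_mul X r

/-- Field step: `a` is a square modulo every irreducible factor. -/
theorem exists_sqrt_mod_irreducible (hodd : Odd (Fintype.card F)) (a : F) (r : ℕ) (hr : r.Prime)
    (hrq : ¬ r ∣ Fintype.card F) (hi : Even (orderOf ((Fintype.card F : ℕ) : ZMod r)))
    (φ : Polynomial F) (hφ : Irreducible φ) (hdvd : φ ∣ phiPoly F r) :
    ∃ g : Polynomial F, φ ∣ g ^ 2 - C a := by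
  classical
  by_cases ha : a = 0
  · exact ⟨0, by simp [ha]⟩
  haveI : Fact (Irreducible φ) := ⟨hφ⟩
  have hφ0 : φ ≠ 0 := hφ.ne_zero
  let pb := AdjoinRoot.powerBasis hφ0
  haveI : Module.Finite F (AdjoinRoot φ) := pb.finite
  haveI : Finite (AdjoinRoot φ) := Module.finite_of_finite F
  haveI : Fintype (AdjoinRoot φ) := Fintype.ofFinite _
  have hcard : Fintype.card (AdjoinRoot φ) = Fintype.card F ^ φ.natDegree := by
    rw [Module.card_eq_pow_finrank (K := F) (V := AdjoinRoot φ), pb.finrank,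
      AdjoinRoot.powerBasis_dim]
  set ξ : AdjoinRoot φ := AdjoinRoot.root φ with hξ
  -- the prime `r` is nonzero in `F`
  obtain ⟨p, hpF⟩ := CharP.exists F
  haveI := hpF
  haveI hpp : Fact p.Prime := ⟨CharP.char_is_prime F p⟩
  have hrF : (r : F) ≠ 0 := by
    intro h0
    have h1 : p ∣ r := (CharP.cast_eq_zero_iff F p r).mp h0
    have h2 : p = r := (Nat.prime_dvd_prime_iff_eq hpp.out hr).mp h1
    apply hrq
    rw [← h2]
    obtain ⟨n, hn⟩ := FiniteField.card F p
    rw [hn.2]
    exact dvd_pow_self p n.ne_zero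
  have hΦξ : aeval ξ (phiPoly F r) = 0 := by
    obtain ⟨h, hh⟩ := hdvd
    rw [hh, map_mul, hξ, AdjoinRoot.aeval_eq, AdjoinRoot.mk_self, zero_mul]
  have hξr : ξ ^ r = 1 := by
    have := congrArg (aeval ξ) (phiPoly_mul (F := F) r)
    rw [map_mul, hΦξ, zero_mul] at this
    simp only [map_sub, map_pow, aeval_X, map_one] at this
    exact (sub_eq_zero.mp this.symm)
  have hξ1 : ξ ≠ 1 := by
    intro h1
    rw [h1] at hΦξ
    unfold phiPoly at hΦξ
    simp only [map_sum, map_pow, aeval_X, one_pow, Finset.sum_const, Finset.card_range,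
      nsmul_eq_mul, mul_one] at hΦξ
    apply hrF
    have : (algebraMap F (AdjoinRoot φ)) (r : F) = 0 := by
      rw [map_natCast]; exact hΦξ
    exact (map_eq_zero _).mp this
  have hξ0 : ξ ≠ 0 := by
    intro h0
    rw [h0, zero_pow hr.ne_zero] at hξr
    exact zero_ne_one hξr
  haveI : Fact r.Prime := ⟨hr⟩
  have hord : orderOf ξ = r := orderOf_eq_prime hξr hξ1
  have hdiv : r ∣ Fintype.card F ^ φ.natDegree - 1 := by
    rw [← hcard, ← hord]
    exact orderOf_dvd_of_pow_eq_one (FiniteField.pow_card_sub_one_eq_one ξ hξ0)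
  have hq1 : 1 ≤ Fintype.card F ^ φ.natDegree := Nat.one_le_pow _ _ Fintype.card_pos
  have hpow : ((Fintype.card F : ℕ) : ZMod r) ^ φ.natDegree = 1 := by
    have h1 : ((Fintype.card F ^ φ.natDegree - 1 : ℕ) : ZMod r) = 0 :=
      (ZMod.natCast_eq_zero_iff _ _).mpr hdiv
    rw [Nat.cast_sub hq1, Nat.cast_pow, Nat.cast_one, sub_eq_zero] at h1
    exact h1
  have hdeg : Even φ.natDegree := by
    have h1 := orderOf_dvd_of_pow_eq_one hpow
    obtain ⟨m, hm⟩ := hi
    obtain ⟨t, ht⟩ := h1
    exact ⟨m * t, by rw [ht, hm]; ring⟩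
  obtain ⟨m, hm⟩ := hdeg
  -- Euler's criterion in `AdjoinRoot φ`
  have hq : 1 ≤ Fintype.card F := Fintype.card_pos
  have hoddE : Odd (Fintype.card (AdjoinRoot φ)) := by
    rw [hcard]; exact hodd.pow
  have hcharE : ringChar (AdjoinRoot φ) ≠ 2 := by
    intro h
    have := FiniteField.even_card_of_char_two h
    rw [Nat.odd_iff] at hoddE
    omega
  have haE : algebraMap F (AdjoinRoot φ) a ≠ 0 := by
    rw [Ne, map_eq_zero]; exact ha
  have hsq : IsSquare (algebraMap F (AdjoinRoot φ) a) := by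
    rw [FiniteField.isSquare_iff hcharE haE, hcard, ← map_pow]
    have hdv : (Fintype.card F - 1) ∣ Fintype.card F ^ φ.natDegree / 2 := by
      -- (q - 1) * ((q + 1)/2) * S = (q^(2m) - 1)/2
      have h1 : Fintype.card F ^ 2 - 1 ∣ (Fintype.card F ^ 2) ^ m - 1 := by
        exact Nat.sub_one_dvd_pow_sub_one (x := Fintype.card F ^ 2) (n := m)
      obtain ⟨S, hS⟩ := h1
      obtain ⟨k, hk⟩ := hodd
      have h2 : Fintype.card F ^ 2 - 1 = (Fintype.card F - 1) * (2 * (k + 1)) := by
        rw [hk]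
        have : (2 * k + 1) ^ 2 = (2 * k) * (2 * (k + 1)) + 1 := by ring
        rw [this]
        simp
      have h3 : Fintype.card F ^ φ.natDegree = (Fintype.card F ^ 2) ^ m := by
        rw [hm, ← two_mul, pow_mul]
      have h4 : 1 ≤ (Fintype.card F ^ 2) ^ m := Nat.one_le_pow _ _ (pow_pos hq 2)
      refine ⟨(k + 1) * S, ?_⟩
      rw [h3]
      have h5 : (Fintype.card F ^ 2) ^ m = 2 * ((Fintype.card F - 1) * ((k + 1) * S)) + 1 := by
        have : (Fintype.card F ^ 2) ^ m - 1 = 2 * ((Fintype.card F - 1) * ((k + 1) * S)) := by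
          rw [hS, h2]; ring
        omega
      rw [h5]
      omega
    obtain ⟨t, ht⟩ := hdv
    rw [ht, pow_mul, FiniteField.pow_card_sub_one_eq_one a ha, one_pow, map_one]
  obtain ⟨η, hη⟩ := hsq
  obtain ⟨g, hg⟩ := AdjoinRoot.mk_surjective η
  refine ⟨g, ?_⟩
  rw [← AdjoinRoot.mk_eq_zero, map_sub, map_pow, hg, AdjoinRoot.mk_C, pow_two, ← hη]
  exact sub_self _

/-- `a` has a polynomial square root modulo `1 + X + ... + X^(r-1)` when the order of `q`
modulo the prime `r ∤ q` is even. -/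
theorem exists_sqrt_poly (hodd : Odd (Fintype.card F)) (a : F) (r : ℕ) (hr : r.Prime)
    (hrq : ¬ r ∣ Fintype.card F) (hi : Even (orderOf ((Fintype.card F : ℕ) : ZMod r))) :
    ∃ g : Polynomial F, phiPoly F r ∣ g ^ 2 - C a := by
  classical
  obtain ⟨p, hpF⟩ := CharP.exists F
  haveI := hpF
  haveI hpp : Fact p.Prime := ⟨CharP.char_is_prime F p⟩
  have hrF : (r : F) ≠ 0 := by
    intro h0
    have h1 : p ∣ r := (CharP.cast_eq_zero_iff F p r).mp h0
    have h2 : p = r := (Nat.prime_dvd_prime_iff_eq hpp.out hr).mp h1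
    apply hrq
    rw [← h2]
    obtain ⟨n, hn⟩ := FiniteField.card F p
    rw [hn.2]
    exact dvd_pow_self p n.ne_zero
  have hsep : (X ^ r - 1 : Polynomial F).Separable := by
    have := separable_X_pow_sub_C (1 : F) hrF one_ne_zero
    simpa using this
  have hsqf : Squarefree (phiPoly F r) :=
    Squarefree.squarefree_of_dvd ⟨X - 1, (phiPoly_mul r).symm⟩ hsep.squarefree
  have hΦ0 : phiPoly F r ≠ 0 := hsqf.ne_zero
  have key : ∀ n : ℕ, ∀ m : Polynomial F, m ∣ phiPoly F r → m.natDegree = n →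
      ∃ g : Polynomial F, m ∣ g ^ 2 - C a := by
    intro n
    induction n using Nat.strong_induction_on with
    | _ n ih =>
      intro m hm hn
      have hm0 : m ≠ 0 := ne_zero_of_dvd_ne_zero hΦ0 hm
      by_cases hu : IsUnit m
      · exact ⟨0, hu.dvd⟩
      obtain ⟨φ, hφ, hφm⟩ := WfDvdMonoid.exists_irreducible_factor hu hm0
      obtain ⟨m', rfl⟩ := hφm
      have hm'0 : m' ≠ 0 := right_ne_zero_of_mul hm0
      have hdeg : m'.natDegree < n := by
        rw [← hn, natDegree_mul hφ.ne_zero hm'0]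
        have := hφ.natDegree_pos
        omega
      obtain ⟨g', hg'⟩ := ih _ hdeg m' (dvd_trans (dvd_mul_left m' φ) hm) rfl
      obtain ⟨gφ, hgφ⟩ := exists_sqrt_mod_irreducible hodd a r hr hrq hi φ hφ
        (dvd_trans (dvd_mul_right φ m') hm)
      have hcop : IsCoprime φ m' := by
        rw [hφ.coprime_iff_not_dvd]
        intro h
        obtain ⟨t, rfl⟩ := h
        have hsq : Squarefree (φ * (φ * t)) := hsqf.squarefree_of_dvd hm
        have := hsq φ ⟨t, by ring⟩
        exact hφ.not_isUnit this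
      obtain ⟨u, v, huv⟩ := hcop
      have h1 : φ ∣ (gφ * (v * m') + g' * (u * φ)) - gφ :=
        ⟨u * (g' - gφ), by linear_combination gφ * huv⟩
      have h2 : m' ∣ (gφ * (v * m') + g' * (u * φ)) - g' :=
        ⟨v * (gφ - g'), by linear_combination g' * huv⟩
      refine ⟨gφ * (v * m') + g' * (u * φ), ?_⟩
      apply IsCoprime.mul_dvd ⟨u, v, huv⟩
      · have e : (gφ * (v * m') + g' * (u * φ)) ^ 2 - C a =
            ((gφ * (v * m') + g' * (u * φ)) - gφ) * ((gφ * (v * m') + g' * (u * φ)) + gφ) +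
              (gφ ^ 2 - C a) := by ring
        rw [e]
        exact dvd_add (Dvd.dvd.mul_right h1 _) hgφ
      · have e : (gφ * (v * m') + g' * (u * φ)) ^ 2 - C a =
            ((gφ * (v * m') + g' * (u * φ)) - g') * ((gφ * (v * m') + g' * (u * φ)) + g') +
              (g' ^ 2 - C a) := by ring
        rw [e]
        exact dvd_add (Dvd.dvd.mul_right h2 _) hg'
  exact key _ (phiPoly F r) dvd_rfl rfl

omit [Fintype F] in
/-- Matrix form: `g(z)² = a` on the moved space of `z` when `z ^ r = 1`. -/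
theorem sqrt_poly_matrix {ι : Type} [Fintype ι] [DecidableEq ι] (a : F) (r : ℕ)
    (g : Polynomial F) (hg : phiPoly F r ∣ g ^ 2 - C a) (z : Matrix ι ι F) (hz : z ^ r = 1) :
    (aeval z g * aeval z g) * (z - 1) = a • (z - 1) := by
  obtain ⟨h, hh⟩ := hg
  have e1 : aeval z (g ^ 2 - C a) = aeval z g * aeval z g - a • (1 : Matrix ι ι F) := by
    rw [map_sub, map_pow, pow_two, aeval_C, Algebra.algebraMap_eq_smul_one]
  have e2 : aeval z (phiPoly F r) * (z - 1) = 0 := by
    have := congrArg (aeval z) (phiPoly_mul (F := F) r)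
    rw [map_mul] at this
    simp only [map_sub, map_pow, aeval_X, map_one] at this
    rw [this, hz, sub_self]
  have e3 : (aeval z g * aeval z g - a • (1 : Matrix ι ι F)) * (z - 1) = 0 := by
    rw [← e1, hh, mul_comm (phiPoly F r) h, map_mul, mul_assoc, e2, mul_zero]
  rw [sub_mul, sub_eq_zero, smul_mul_assoc, one_mul] at e3
  exact e3

end sqrt

end Cfsg.Agent.Lib.Helper85.OFM
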