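-- helper85: project OFM (S5978, helper74), helper60's [SYL4] cut: packages [SQRTPHI] and [ZSQ].
import Mathlib
import Cfsg.Agent.Lib.Helper60.OFM.Syl4Defs
import Cfsg.Agent.Lib.Helper85.OFM.SqrtPoly

set_option autoImplicit false
open Polynomial Matrix

universe u

namespace Cfsg.Agent.Lib.Helper85.OFM

open Cfsg.Agent.Lib.Helper23.OHyp in
/-- [SQRTPHI] -/
theorem pkgSqrtPhi : Cfsg.Agent.Lib.Helper60.OFM.PkgSqrtPhi.{u} := by
  intro F _ _ hodd r hr _ hrq hi a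
  obtain ⟨g, hg⟩ := exists_sqrt_poly (F := F) hodd a r hr hrq hi
  exact ⟨g, hg⟩

open Cfsg.Agent.Lib.Helper23.OHyp in
/-- [ZSQ] -/
theorem pkgZSq : Cfsg.Agent.Lib.Helper60.OFM.PkgZSq.{u} := by
  intro F _ ι _ _ r x hx a g₀ hg v hv
  have hg' : phiPoly F r ∣ g₀ ^ 2 - C a := hg
  have key := sqrt_poly_matrix a r g₀ hg' x hx
  obtain ⟨w, rfl⟩ := hv
  have e : (Matrix.toLin' x - 1) w = (x - 1) *ᵥ w := by
    simp [Matrix.sub_mulVec]
  rw [e, Matrix.mulVec_mulVec, Matrix.mulVec_mulVec, key, Matrix.smul_mulVec]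

end Cfsg.Agent.Lib.Helper85.OFM
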